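import Cfsg.Agent.KFacts.TwESix.Comb

/-!
# Combinatorics of `F₄` at the highest root (packet [B])

`rho = (2,3,4,2)`, `⟨x, ρ^∨⟩ = x 0`; the statements on `{x | x 0 = 1}` and `{x | x 0 = 0}` used for the unipotent
radical `Q` of the stabiliser of `X ρ`; `btwn_orth`, `btwn_135`: the roots between two short orthogonal roots, resp.
between a long and a short root at 135 degrees.
-/

set_option autoImplicit false
set_option linter.unusedSectionVars false

namespace Cfsg.Agent.KFacts.TwESix.CombRho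

open CoxeterSystem Cfsg.Agent.ChevalleyStructure.CoxeterGeom Cfsg.Agent.Tits.Roots Cfsg.Agent.Tits.Core
  Cfsg.Agent.Tits.RootComb Cfsg.Agent.Nodes.Reps Cfsg.Agent.Nodes.BNOf Cfsg.Agent.Nodes.Coroot
  Cfsg.Agent.KFacts.RgdSL Cfsg.Agent.Nodes.RGDTwE6 Cfsg.Agent.KFacts.TwESix.Comb

variable {W : Type*} [Group W] (cs : CoxeterSystem CoxeterMatrix.F₄ W)

set_option maxRecDepth 20000

/-! ### Roots between two roots -/

/-- The root between two orthogonal short roots is the sum. -/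
theorem btwn_orth {x y z : Fin 4 → ℤ} (hx : bf x x = 2) (hy : bf y y = 2) (hxy : bf x y = 0)
    (hz : Btwn cs isCartan x y z) : z = x + y := by
  obtain ⟨hzr, m, a, b, hm, ha, hb, he⟩ := hz
  have e1 : m * bf z x = 2 * a := by
    have := congrArg (fun v => bf v x) he
    simp only [bf_add_left, bf_smul_left] at this
    rw [this, bf_comm y x, hx, hxy]; ring
  have e2 : m * bf z y = 2 * b := by
    have := congrArg (fun v => bf v y) he
    simp only [bf_add_left, bf_smul_left] at this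
    rw [this, hxy, hy]; ring
  have e3 : m * bf z z = a * bf z x + b * bf z y := by
    have h2 := congrArg (fun v => bf v z) he
    simp only [bf_add_left, bf_smul_left] at h2
    rw [h2, bf_comm x z, bf_comm y z]
  set c := bf z x with hc
  set d := bf z y with hd
  have hc0 : 0 < c := by
    by_contra h
    have : m * c ≤ 0 := mul_nonpos_of_nonneg_of_nonpos hm.le (not_lt.1 h)
    omega
  have hd0 : 0 < d := by
    by_contra h
    have : m * d ≤ 0 := mul_nonpos_of_nonneg_of_nonpos hm.le (not_lt.1 h)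
    omega
  have e4 : 2 * bf z z = c * c + d * d := by
    have h2 : m * (2 * bf z z) = m * (c * c + d * d) := by linear_combination 2 * e3 - c * e1 - d * e2
    exact mul_left_cancel₀ hm.ne' h2
  have hcd : c = 2 ∧ d = 2 := by
    have hN : bf z z ≤ 4 := by rcases norm cs hzr with h | h <;> omega
    have b1 : c ≤ 2 := by nlinarith
    have b2 : d ≤ 2 := by nlinarith
    rcases norm cs hzr with h | h <;> rw [h] at e4 <;> clear_value c d <;> interval_cases c <;>
      interval_cases d <;> omega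
  have ha' : a = m := by rw [hcd.1] at e1; omega
  have hb' : b = m := by rw [hcd.2] at e2; omega
  rw [ha', hb', ← smul_add] at he
  exact smul_right_injective _ hm.ne' he

/-- The roots between a long root `x` and a short root `y` at 135 degrees are `x + y` and `x + 2 y`. -/
theorem btwn_135 {x y z : Fin 4 → ℤ} (hx : bf x x = 4) (hy : bf y y = 2) (hxy : bf x y = -2)
    (hz : Btwn cs isCartan x y z) : z = x + y ∨ z = x + (2 : ℤ) • y := by
  obtain ⟨hzr, m, a, b, hm, ha, hb, he⟩ := hz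
  have e1 : m * bf z x = 4 * a - 2 * b := by
    have := congrArg (fun v => bf v x) he
    simp only [bf_add_left, bf_smul_left] at this
    rw [this, bf_comm y x, hx, hxy]; ring
  have e2 : m * bf z y = -2 * a + 2 * b := by
    have := congrArg (fun v => bf v y) he
    simp only [bf_add_left, bf_smul_left] at this
    rw [this, hxy, hy]; ring
  have e3 : m * bf z z = a * bf z x + b * bf z y := by
    have h2 := congrArg (fun v => bf v z) he
    simp only [bf_add_left, bf_smul_left] at h2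
    rw [h2, bf_comm x z, bf_comm y z]
  obtain ⟨c, hc⟩ : ∃ c, c = bf z x + bf z y := ⟨_, rfl⟩
  obtain ⟨d, hd⟩ : ∃ d, d = bf z x + 2 * bf z y := ⟨_, rfl⟩
  have f1 : m * c = 2 * a := by rw [hc]; linear_combination e1 + e2
  have f2 : m * d = 2 * b := by rw [hd]; linear_combination e1 + 2 * e2
  have hc0 : 0 < c := by
    by_contra h
    have : m * c ≤ 0 := mul_nonpos_of_nonneg_of_nonpos hm.le (not_lt.1 h)
    omega
  have hd0 : 0 < d := by
    by_contra h
    have : m * d ≤ 0 := mul_nonpos_of_nonneg_of_nonpos hm.le (not_lt.1 h)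
    omega
  have e4 : 2 * bf z z = c * c + (c - d) * (c - d) := by
    have hzx : bf z x = 2 * c - d := by rw [hc, hd]; ring
    have hzy : bf z y = d - c := by rw [hc, hd]; ring
    have h2 : m * (2 * bf z z) = m * (c * c + (c - d) * (c - d)) := by
      have e5 := e3
      rw [hzx, hzy] at e5
      linear_combination 2 * e5 - (2 * c - d) * f1 - (d - c) * f2
    exact mul_left_cancel₀ hm.ne' h2
  have hcd : c = 2 ∧ (d = 2 ∨ d = 4) := by
    have hN : bf z z ≤ 4 := by rcases norm cs hzr with h | h <;> omega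
    have b1 : c ≤ 2 := by nlinarith
    have b2 : d ≤ 5 := by nlinarith
    rcases norm cs hzr with h | h <;> rw [h] at e4 <;> clear hc hd <;> interval_cases c <;>
      interval_cases d <;> omega
  have ha' : a = m := by rw [hcd.1] at f1; omega
  rcases hcd.2 with h2 | h2
  · left
    have hb' : b = m := by rw [h2] at f2; omega
    rw [ha', hb', ← smul_add] at he
    exact smul_right_injective _ hm.ne' he
  · right
    have hb' : b = m * 2 := by rw [h2] at f2; omega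
    rw [ha', hb', mul_smul, ← smul_add] at he
    exact smul_right_injective _ hm.ne' he

/-! ### Kernel checks -/

theorem zero_le : ∀ b ∈ rts, b 0 ≤ 2 := by decide +kernel

theorem eq_rho : ∀ b ∈ rts, b 0 = 2 → b = rho := by decide +kernel

theorem op_mem : ∀ b ∈ rts, b 0 = 1 → rho - b ∈ rts ∧ (rho - b) 0 = 1 ∧ bf (rho - b) (rho - b) = bf b b ∧
    2 * bf b (rho - b) = (if bf b b = 4 then -4 else 0) := by decide +kernel

/-- commuting pairs in `Φ₁` -/
theorem comm1 : ∀ a ∈ rts, a 0 = 1 → ∀ b ∈ rts, b 0 = 1 → b ≠ rho - a →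
    (bf a a = 4 ∧ 0 ≤ bf b a) ∨ (bf b b = 4 ∧ 0 ≤ bf a b) ∨ (bf a a = 2 ∧ bf b b = 2 ∧ (a = b ∨ bf a b = 1)) := by
  decide +kernel

/-- `b = d + (b - d)`, an `A₂`-pair with `d ⟂ ρ` -/
theorem ex : ∀ b ∈ rts, b 0 = 1 → ∃ d ∈ rts, d 0 = 0 ∧ b - d ∈ rts ∧ bf d d = bf b b ∧
    bf (b - d) (b - d) = bf b b ∧ 2 * bf d (b - d) = - bf b b ∧ 2 * bf d (rho - b) = - bf b b ∧ b - d ≠ b := by
  decide +kernel

/-- separation -/
theorem sep : ∀ b ∈ rts, b 0 = 1 → bf b b = 4 → ∀ b' ∈ rts, b' 0 = 1 → b' ≠ b → ∃ d ∈ rts, d 0 = 0 ∧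
    bf d d = 4 ∧ bf b d = 2 ∧ bf b' d ≠ 2 ∧ b - d ∈ rts := by
  decide +kernel

/-- the commutators `[X d, X c]`, `d` long, `d ⟂ ρ`, `c ∈ Φ₁` -/
theorem sep_comm : ∀ d ∈ rts, d 0 = 0 → bf d d = 4 → ∀ c ∈ rts, c 0 = 1 → 0 ≤ bf c d ∨
    (bf c c = 4 ∧ bf c d = -2 ∧ bf (d + c) d = 2 ∧ d + c ∈ rts ∧ (d + c) 0 = 1) ∨
    (bf c c = 2 ∧ bf d c = -2 ∧ bf (d + c) d = 2 ∧ d + c ∈ rts ∧ (d + c) 0 = 1 ∧ d + (2 : ℤ) • c = rho) := by
  decide +kernel

/-- a torus moving `X b` inside `P` -/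
theorem tor : ∀ b ∈ rts, b 0 = 1 → bf b b = 4 → ∃ d ∈ rts, d 0 = 0 ∧ bf d d = 4 ∧ 2 * bf d b = -4 := by
  decide +kernel

/-- short roots of `Φ₁` from long ones -/
theorem short : ∀ b ∈ rts, b 0 = 1 → bf b b = 2 → ∃ c ∈ rts, c 0 = 1 ∧ bf c c = 4 ∧ ∃ d ∈ rts, d 0 = 0 ∧
    bf d d = 2 ∧ bf c d = -2 ∧ c + d = b ∧ c + (2 : ℤ) • d ∈ rts ∧ bf (c + (2 : ℤ) • d) (c + (2 : ℤ) • d) = 4 ∧
    (c + (2 : ℤ) • d) 0 = 1 := by
  decide +kernel

/-- the root number `k` -/
def rhoRt (k : ℕ) : Fin 4 → ℤ := rts.getD k 0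

theorem exists_rhoRt {x : Fin 4 → ℤ} (hx : x ∈ rts) : ∃ k < 48, rhoRt k = x := by
  obtain ⟨k, hk, h⟩ := List.mem_iff_getElem.1 hx
  refine ⟨k, hk, ?_⟩
  rw [rhoRt, List.getD_eq_getElem _ _ hk, h]

theorem rhoRt_mem {k : ℕ} (hk : k < 48) : rhoRt k ∈ rts := by
  rw [rhoRt, List.getD_eq_getElem _ _ (show k < rts.length from hk)]
  exact List.getElem_mem _

/-- the two summands of the root number `k` in `perf` -/
def perfTab : List (ℕ × ℕ) := [
  (15, 37), (2, 24), (0, 1), (13, 15), (1, 3), (12, 18), (0, 4), (1, 5), (0, 7), (3, 7), (0, 9), (1, 10),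
  (14, 37), (14, 36), (12, 13), (16, 36), (12, 15), (19, 36), (13, 16), (12, 17), (13, 19), (15, 19), (13, 21),
  (12, 22), (13, 39), (0, 0), (0, 0), (12, 42), (0, 0), (36, 42), (0, 0), (0, 0), (0, 0), (0, 0), (0, 0),
  (0, 0), (13, 38), (12, 38), (15, 42), (12, 40), (13, 42), (0, 0), (37, 40), (0, 0), (0, 0), (0, 0), (0, 0),
  (0, 0)]

theorem perf_tab : ∀ k < 48, 0 ≤ rhoRt k 0 → (perfTab.getD k (0, 0)).1 < 48 ∧ (perfTab.getD k (0, 0)).2 < 48 ∧
    0 ≤ rhoRt (perfTab.getD k (0, 0)).1 0 ∧ 0 ≤ rhoRt (perfTab.getD k (0, 0)).2 0 ∧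
    rhoRt (perfTab.getD k (0, 0)).1 + rhoRt (perfTab.getD k (0, 0)).2 = rhoRt k ∧
    ((bf (rhoRt (perfTab.getD k (0, 0)).1) (rhoRt (perfTab.getD k (0, 0)).1) =
        bf (rhoRt (perfTab.getD k (0, 0)).2) (rhoRt (perfTab.getD k (0, 0)).2) ∧
      2 * bf (rhoRt (perfTab.getD k (0, 0)).1) (rhoRt (perfTab.getD k (0, 0)).2) =
        - bf (rhoRt (perfTab.getD k (0, 0)).1) (rhoRt (perfTab.getD k (0, 0)).1)) ∨
     (bf (rhoRt k) (rhoRt k) = 4 ∧ bf (rhoRt (perfTab.getD k (0, 0)).1) (rhoRt (perfTab.getD k (0, 0)).1) = 2 ∧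
      bf (rhoRt (perfTab.getD k (0, 0)).2) (rhoRt (perfTab.getD k (0, 0)).2) = 2 ∧
      bf (rhoRt (perfTab.getD k (0, 0)).1) (rhoRt (perfTab.getD k (0, 0)).2) = 0)) := by
  decide +kernel

/-- every root of `P` is a commutator inside `P` -/
theorem perf : ∀ b ∈ rts, 0 ≤ b 0 → (∃ c ∈ rts, 0 ≤ c 0 ∧ ∃ d ∈ rts, 0 ≤ d 0 ∧ bf c c = bf d d ∧
    2 * bf c d = - bf c c ∧ c + d = b) ∨ (bf b b = 4 ∧ ∃ c ∈ rts, 0 ≤ c 0 ∧ ∃ d ∈ rts, 0 ≤ d 0 ∧ bf c c = 2 ∧
    bf d d = 2 ∧ bf c d = 0 ∧ c + d = b) := by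
  intro b hb h0
  obtain ⟨k, hk, rfl⟩ := exists_rhoRt hb
  obtain ⟨h1, h2, h3, h4, h5, h6⟩ := perf_tab k hk h0
  rcases h6 with ⟨h7, h8⟩ | ⟨h7, h8, h9, h10⟩
  · exact Or.inl ⟨_, rhoRt_mem h1, h3, _, rhoRt_mem h2, h4, h7, h8, h5⟩
  · exact Or.inr ⟨h7, _, rhoRt_mem h1, h3, _, rhoRt_mem h2, h4, h8, h9, h10, h5⟩

/-- every root lies in an `A₂`-pair -/
theorem nbr : ∀ b ∈ rts, ∃ x ∈ rts, bf x x = bf b b ∧ 2 * bf x b = - bf x x := by decide +kernel

/-- the sum of two orthogonal short roots is a long root -/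
theorem orth_add : ∀ x ∈ rts, bf x x = 2 → ∀ y ∈ rts, bf y y = 2 → bf x y = 0 → x + y ∈ rts ∧
    bf (x + y) (x + y) = 4 := by
  decide +kernel

/-! ### Transitivity on the orthogonal pairs of short roots -/

/-- One step of the descent of `(x, y)`. -/
def stp (z : (Fin 4 → ℤ) × (Fin 4 → ℤ)) : (Fin 4 → ℤ) × (Fin 4 → ℤ) :=
  match (List.finRange 4).find? fun i => decide (0 < pairing A i z.1 ∨ (pairing A i z.1 = 0 ∧ 0 < pairing A i z.2)) with
  | none => z
  | some i => (Cfsg.Agent.Nodes.RGDFold.refl A i z.1, Cfsg.Agent.Nodes.RGDFold.refl A i z.2)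

/-- the lowest pair -/
def lowp : (Fin 4 → ℤ) × (Fin 4 → ℤ) := stp^[30] (![0, 0, 1, 0], ![0, 1, 1, 0])

/-- the ordered pairs of orthogonal short roots, by their positions in `rts` -/
def stpPrs : List (ℕ × ℕ) := [
  (12, 18), (12, 20), (12, 21), (12, 42), (12, 44), (12, 45), (13, 15), (13, 17), (13, 23), (13, 39), (13, 41),
  (13, 47), (14, 16), (14, 19), (14, 22), (14, 40), (14, 43), (14, 46), (15, 13), (15, 17), (15, 23), (15, 37),
  (15, 41), (15, 47), (16, 14), (16, 19), (16, 22), (16, 38), (16, 43), (16, 46), (17, 13), (17, 15), (17, 23),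
  (17, 37), (17, 39), (17, 47), (18, 12), (18, 20), (18, 21), (18, 36), (18, 44), (18, 45), (19, 14), (19, 16),
  (19, 22), (19, 38), (19, 40), (19, 46), (20, 12), (20, 18), (20, 21), (20, 36), (20, 42), (20, 45), (21, 12),
  (21, 18), (21, 20), (21, 36), (21, 42), (21, 44), (22, 14), (22, 16), (22, 19), (22, 38), (22, 40), (22, 43),
  (23, 13), (23, 15), (23, 17), (23, 37), (23, 39), (23, 41), (36, 18), (36, 20), (36, 21), (36, 42), (36, 44),
  (36, 45), (37, 15), (37, 17), (37, 23), (37, 39), (37, 41), (37, 47), (38, 16), (38, 19), (38, 22), (38, 40),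
  (38, 43), (38, 46), (39, 13), (39, 17), (39, 23), (39, 37), (39, 41), (39, 47), (40, 14), (40, 19), (40, 22),
  (40, 38), (40, 43), (40, 46), (41, 13), (41, 15), (41, 23), (41, 37), (41, 39), (41, 47), (42, 12), (42, 20),
  (42, 21), (42, 36), (42, 44), (42, 45), (43, 14), (43, 16), (43, 22), (43, 38), (43, 40), (43, 46), (44, 12),
  (44, 18), (44, 21), (44, 36), (44, 42), (44, 45), (45, 12), (45, 18), (45, 20), (45, 36), (45, 42), (45, 44),
  (46, 14), (46, 16), (46, 19), (46, 38), (46, 40), (46, 43), (47, 13), (47, 15), (47, 17), (47, 37), (47, 39),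
  (47, 41)]

/-- the positions of the images of `stpPrs` under `stp` -/
def stpNxt : List ℕ := [
  72, 0, 1, 4, 5, 77, 78, 6, 80, 10, 82, 83, 0, 12, 2, 16, 4, 5, 6, 7, 8, 9, 10, 11, 12, 13, 14, 15, 16, 17,
  18, 19, 20, 21, 22, 23, 24, 25, 37, 27, 41, 29, 24, 25, 26, 27, 28, 29, 36, 37, 38, 39, 40, 41, 48, 49, 55,
  51, 59, 53, 54, 60, 61, 64, 65, 59, 69, 66, 67, 70, 71, 65, 84, 72, 73, 76, 77, 89, 90, 78, 92, 82, 94, 95,
  96, 84, 98, 88, 100, 101, 102, 103, 104, 105, 106, 107, 114, 115, 116, 117, 118, 119, 105, 102, 116, 106,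
  118, 119, 120, 121, 122, 123, 124, 125, 120, 114, 122, 118, 124, 125, 126, 127, 128, 129, 130, 131, 132, 133,
  127, 135, 131, 137, 138, 132, 133, 136, 137, 143, 141, 138, 139, 142, 143, 143]

/-- the pair number `i` -/
def stpPr (i : ℕ) : (Fin 4 → ℤ) × (Fin 4 → ℤ) := (rhoRt (stpPrs.getD i (0, 0)).1, rhoRt (stpPrs.getD i (0, 0)).2)

/-- the position after `n` steps -/
def stpIt (n i : ℕ) : ℕ := (fun j => stpNxt.getD j 0)^[n] i

theorem stpPrs_chk : ((List.range 48).all fun a => !decide (bf (rhoRt a) (rhoRt a) = 2) ||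
    (List.range 48).all fun b => !decide (bf (rhoRt b) (rhoRt b) = 2) || !decide (bf (rhoRt a) (rhoRt b) = 0) ||
      decide ((a, b) ∈ stpPrs)) = true := by
  decide +kernel

theorem stpPrs_mem (a : ℕ) (ha : a < 48) (haa : bf (rhoRt a) (rhoRt a) = 2) (b : ℕ) (hb : b < 48)
    (h : bf (rhoRt b) (rhoRt b) = 2 ∧ bf (rhoRt a) (rhoRt b) = 0) : (a, b) ∈ stpPrs := by
  have h1 := List.all_eq_true.1 stpPrs_chk a (List.mem_range.2 ha)
  rw [Bool.or_eq_true, Bool.not_eq_true', decide_eq_false_iff_not] at h1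
  have h2 := List.all_eq_true.1 (h1.resolve_left (not_not.2 haa)) b (List.mem_range.2 hb)
  rw [Bool.or_eq_true, Bool.or_eq_true, Bool.not_eq_true', Bool.not_eq_true', decide_eq_false_iff_not,
    decide_eq_false_iff_not, decide_eq_true_iff] at h2
  rcases h2 with (h2 | h2) | h2
  · exact absurd h.1 h2
  · exact absurd h.2 h2
  · exact h2

theorem stpPr_step : ∀ i < 144, stpNxt.getD i 0 < 144 ∧ stp (stpPr i) = stpPr (stpNxt.getD i 0) := by
  decide +kernel

theorem stpIt_last : ∀ i < 144, stpIt 30 i = 143 := by decide +kernel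

theorem stpPr_start : ((![0, 0, 1, 0], ![0, 1, 1, 0]) : (Fin 4 → ℤ) × (Fin 4 → ℤ)) = stpPr 6 := by decide +kernel

theorem stpPr_iter (n : ℕ) : ∀ i < 144, stp^[n] (stpPr i) = stpPr (stpIt n i) := by
  induction n with
  | zero => exact fun i _ => rfl
  | succ n ih =>
    intro i hi
    obtain ⟨h1, h2⟩ := stpPr_step i hi
    rw [Function.iterate_succ_apply, h2, ih _ h1]
    rfl

theorem stpPr_low (i : ℕ) (hi : i < 144) : stp^[30] (stpPr i) = stpPr 143 := by
  rw [stpPr_iter 30 i hi, stpIt_last i hi]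

theorem stp_all : ∀ x ∈ rts, bf x x = 2 → ∀ y ∈ rts, bf y y = 2 → bf x y = 0 → stp^[30] (x, y) = lowp := by
  intro x hx hxx y hy hyy hxy
  obtain ⟨a, ha, rfl⟩ := exists_rhoRt hx
  obtain ⟨b, hb, rfl⟩ := exists_rhoRt hy
  obtain ⟨i, hi, h⟩ := List.mem_iff_getElem.1 (stpPrs_mem a ha hxx b hb ⟨hyy, hxy⟩)
  have h1 : (rhoRt a, rhoRt b) = stpPr i := by
    rw [stpPr, List.getD_eq_getElem _ _ hi, h]
  rw [h1, stpPr_low i hi, lowp, stpPr_start, stpPr_low 6 (by norm_num)]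

theorem exists_stp (z : (Fin 4 → ℤ) × (Fin 4 → ℤ)) : ∃ w : W, rep cs isCartan w (stp z).1 = z.1 ∧
    rep cs isCartan w (stp z).2 = z.2 := by
  unfold stp
  cases h : (List.finRange 4).find? fun i =>
      decide (0 < pairing A i z.1 ∨ (pairing A i z.1 = 0 ∧ 0 < pairing A i z.2)) with
  | none => exact ⟨1, by rw [map_one]; exact ⟨rfl, rfl⟩⟩
  | some i =>
    refine ⟨cs.simple i, ?_, ?_⟩
    · show rep cs isCartan (cs.simple i) (Cfsg.Agent.Nodes.RGDFold.refl A i z.1) = z.1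
      rw [← rep_simple_refl cs i, ← rep_mul_apply, cs.simple_mul_simple_self, map_one]; rfl
    · show rep cs isCartan (cs.simple i) (Cfsg.Agent.Nodes.RGDFold.refl A i z.2) = z.2
      rw [← rep_simple_refl cs i, ← rep_mul_apply, cs.simple_mul_simple_self, map_one]; rfl

theorem exists_stp_iter (n : ℕ) (z : (Fin 4 → ℤ) × (Fin 4 → ℤ)) : ∃ w : W,
    rep cs isCartan w (stp^[n] z).1 = z.1 ∧ rep cs isCartan w (stp^[n] z).2 = z.2 := by
  induction n generalizing z with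
  | zero => exact ⟨1, by rw [map_one]; exact ⟨rfl, rfl⟩⟩
  | succ n ih =>
    obtain ⟨w, h1, h2⟩ := ih (stp z)
    obtain ⟨v, h3, h4⟩ := exists_stp cs z
    refine ⟨v * w, ?_, ?_⟩
    · rw [Function.iterate_succ_apply, rep_mul_apply, h1, h3]
    · rw [Function.iterate_succ_apply, rep_mul_apply, h2, h4]

/-- `W` is transitive on the ordered pairs of orthogonal short roots. -/
theorem exists_rep_pair {x y x' y' : Fin 4 → ℤ} (hx : IsRoot cs isCartan x) (hy : IsRoot cs isCartan y)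
    (hxx : bf x x = 2) (hyy : bf y y = 2) (hxy : bf x y = 0) (hx' : IsRoot cs isCartan x')
    (hy' : IsRoot cs isCartan y') (hxx' : bf x' x' = 2) (hyy' : bf y' y' = 2) (hxy' : bf x' y' = 0) :
    ∃ w : W, rep cs isCartan w x = x' ∧ rep cs isCartan w y = y' := by
  obtain ⟨w, h1, h2⟩ := exists_stp_iter cs 30 (x, y)
  obtain ⟨v, h3, h4⟩ := exists_stp_iter cs 30 (x', y')
  rw [stp_all x ((mem_rts cs).1 hx) hxx y ((mem_rts cs).1 hy) hyy hxy] at h1 h2
  rw [stp_all x' ((mem_rts cs).1 hx') hxx' y' ((mem_rts cs).1 hy') hyy' hxy'] at h3 h4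
  refine ⟨v * w⁻¹, ?_, ?_⟩
  · rw [rep_mul_apply]
    have : rep cs isCartan w⁻¹ x = lowp.1 := by
      have h5 : x = rep cs isCartan w lowp.1 := h1.symm
      rw [h5, rep_inv_apply]
    rw [this]; exact h3
  · rw [rep_mul_apply]
    have : rep cs isCartan w⁻¹ y = lowp.2 := by
      have h5 : y = rep cs isCartan w lowp.2 := h2.symm
      rw [h5, rep_inv_apply]
    rw [this]; exact h4

end Cfsg.Agent.KFacts.TwESix.CombRho
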